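import Cfsg.Agent.Lib.Helper35.Fi24b.PData

set_option Elab.async false

namespace Cfsg.Agent.Lib.Helper35.Fi24b

open Cfsg.Agent.Lib.Helper35

theorem rc1105 : allBelow (fun k => fr (Nat.add 302770 k)) 274 = true := by decide +kernel
theorem rc1106 : allBelow (fun k => fr (Nat.add 303044 k)) 274 = true := by decide +kernel
theorem rc1107 : allBelow (fun k => fr (Nat.add 303318 k)) 274 = true := by decide +kernel
theorem rc1108 : allBelow (fun k => fr (Nat.add 303592 k)) 274 = true := by decide +kernel
theorem rc1109 : allBelow (fun k => fr (Nat.add 303866 k)) 274 = true := by decide +kernel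
theorem rc1110 : allBelow (fun k => fr (Nat.add 304140 k)) 274 = true := by decide +kernel
theorem rc1111 : allBelow (fun k => fr (Nat.add 304414 k)) 274 = true := by decide +kernel
theorem rc1112 : allBelow (fun k => fr (Nat.add 304688 k)) 274 = true := by decide +kernel
theorem rc1113 : allBelow (fun k => fr (Nat.add 304962 k)) 274 = true := by decide +kernel
theorem rc1114 : allBelow (fun k => fr (Nat.add 305236 k)) 274 = true := by decide +kernel
theorem rc1115 : allBelow (fun k => fr (Nat.add 305510 k)) 274 = true := by decide +kernel
theorem rc1116 : allBelow (fun k => fr (Nat.add 305784 k)) 274 = true := by decide +kernel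
theorem rc1117 : allBelow (fun k => fr (Nat.add 306058 k)) 274 = true := by decide +kernel
theorem rc1118 : allBelow (fun k => fr (Nat.add 306332 k)) 274 = true := by decide +kernel
theorem rc1119 : allBelow (fun k => fr (Nat.add 306606 k)) 274 = true := by decide +kernel
theorem rc1120 : allBelow (fun k => fr (Nat.add 306880 k)) 56 = true := by decide +kernel

end Cfsg.Agent.Lib.Helper35.Fi24b
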